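import Cfsg.Agent.M24Local37.WidthSix
import Cfsg.Agent.TTLink.M24Cores

/-!
The hypotheses of the width six theorem in the form delivered by the M(23) statements.
-/

set_option autoImplicit false

namespace Cfsg.Agent.M24Local37

open Cfsg Cfsg.Agent.ThreeTransp45 Cfsg.Agent.TTLink

/-- The cores condition in type M(23), at every transposition. -/
theorem cores_m23prim {X : Type*} [Group X] [Finite X] {E : Set X} (P : M23Prim E) {a : X} (ha : a ∈ E) :
    Cfsg.pCore 3 ↥(Subgroup.closure (link E a)) ≤ Subgroup.center ↥(Subgroup.closure (link E a)) ∧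
    Cfsg.pCore 2 ↥(Subgroup.closure (link E a)) ≤ Subgroup.center ↥(Subgroup.closure (link E a)) := by
  suffices key : ∀ p : ℕ, p.Prime →
      Cfsg.pCore p ↥(Subgroup.closure (link E a)) ≤ Subgroup.center ↥(Subgroup.closure (link E a)) from
    ⟨key 3 Nat.prime_three, key 2 Nat.prime_two⟩
  intro p hp z hz
  have : Fact p.Prime := ⟨hp⟩
  have : (Cfsg.pCore p ↥(Subgroup.closure (link E a))).Normal := Cores.pCore_normal_inst p _
  set q := QuotientGroup.mk' (Subgroup.center ↥(Subgroup.closure (link E a)))
  have : Group.IsNilpotent ↥((Cfsg.pCore p ↥(Subgroup.closure (link E a))).map q) :=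
    ((PSolv.isPGroup_pCore p _).map q).isNilpotent
  have hb := P.quot_noSolv ha ((Cfsg.pCore p ↥(Subgroup.closure (link E a))).map q)
    (Subgroup.Normal.map inferInstance _ (QuotientGroup.mk'_surjective _)) inferInstance
  refine (QuotientGroup.eq_one_iff _).1 ?_
  rw [← Subgroup.mem_bot, ← hb]
  exact ⟨z, hz, rfl⟩

end Cfsg.Agent.M24Local37
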